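import Mathlib.Data.Nat.Choose.Central
import Mathlib.Combinatorics.Enumerative.Bell
import Mathlib.Tactic

/-!
# Binomial coefficients with only large prime factors
-/

set_option autoImplicit false

namespace CfsgLib.HallSym

/-- If all prime factors of `K` exceed `a`, a number with no prime factor above `a` is prime to `K`. -/
theorem coprime_of_large {a x K : ℕ} (hK : ∀ p : ℕ, p.Prime → p ∣ K → a < p)
    (hx : ∀ p : ℕ, p.Prime → p ∣ x → p ≤ a) : Nat.Coprime x K :=
  Nat.coprime_of_dvd fun p hp h1 h2 => absurd (hx p hp h1) (not_le.mpr (hK p hp h2))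

theorem le_of_prime_dvd_le {a x : ℕ} (hx : x ≠ 0) (hxa : x ≤ a) :
    ∀ p : ℕ, p.Prime → p ∣ x → p ≤ a :=
  fun _ _ h => (Nat.le_of_dvd (Nat.pos_of_ne_zero hx) h).trans hxa

/-- an even number `x ≤ 2a` has all its prime factors at most `a` -/
theorem le_of_prime_dvd_even {a x : ℕ} (hx : x ≠ 0) (he : 2 ∣ x) (ha : 2 ≤ a) (hxa : x ≤ 2 * a) :
    ∀ p : ℕ, p.Prime → p ∣ x → p ≤ a := by
  intro p hp h
  obtain ⟨y, rfl⟩ := he
  rcases hp.dvd_mul.mp h with h | h
  · exact ((Nat.prime_dvd_prime_iff_eq hp Nat.prime_two).mp h).le.trans ha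
  · have := Nat.le_of_dvd (by omega) h
    omega

theorem pascal {n k : ℕ} (hk : 1 ≤ k) (hkn : k ≤ n) :
    n.choose k * k = n.choose (k - 1) * (n - k + 1) := by
  obtain ⟨d, rfl⟩ : ∃ d, k = d + 1 := ⟨k - 1, by omega⟩
  rw [Nat.choose_succ_right_eq n d, Nat.add_sub_cancel]
  congr 1
  omega

/-- if `(x · y) ∣ K · z` with `x` prime to `K`, then `x ∣ z` -/
theorem dvd_of_large {a x K z : ℕ} (hK : ∀ p : ℕ, p.Prime → p ∣ K → a < p)
    (hx : ∀ p : ℕ, p.Prime → p ∣ x → p ≤ a) (h : x ∣ K * z) : x ∣ z :=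
  (coprime_of_large hK hx).dvd_of_dvd_mul_left h

theorem prime_of_factors {a x : ℕ} (hx : 2 ≤ x) (hxa : x ≤ 2 * a + 1)
    (h : ∀ y : ℕ, y ∣ x → y ≤ a → y = 1) : x.Prime := by
  by_contra hnp
  obtain ⟨y, hy, hy2, hyx⟩ := Nat.exists_dvd_of_not_prime2 hx hnp
  obtain ⟨z, rfl⟩ := hy
  have hz2 : 2 ≤ z := by
    by_contra hz
    interval_cases z <;> omega
  have hya : y ≤ a := by nlinarith
  exact absurd (h y (Dvd.intro z rfl) hya) (by omega)

/-- The binomial coefficient `(a + c).choose c` with `c ≤ a` has a prime factor at most `a`, apart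
from `c = 1` with `a + 1` prime and the case `(a, c) = (4, 3)`. -/
theorem choose_small_prime {a c : ℕ} (ha : 2 ≤ a) (hc : 1 ≤ c) (hca : c ≤ a)
    (h : ∀ p : ℕ, p.Prime → p ∣ (a + c).choose c → a < p) :
    (c = 1 ∧ (a + 1).Prime) ∨ (a = 4 ∧ c = 3) := by
  rcases Nat.lt_or_ge c 2 with hc1 | hc2
  · have : c = 1 := by omega
    subst this
    refine Or.inl ⟨rfl, prime_of_factors (by omega) (le_of_lt (by omega : a + 1 < 2 * a + 1))
      fun y hy hya => ?_⟩
    by_contra hy1
    obtain ⟨p, hp, hpy⟩ := Nat.exists_prime_and_dvd hy1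
    have hy0 : y ≠ 0 := by rintro rfl; simp at hy
    have h1 := h p hp (by rw [Nat.choose_one_right]; exact hpy.trans hy)
    have := Nat.le_of_dvd (Nat.pos_of_ne_zero hy0) hpy
    omega
  set K := (a + c).choose c with hKdef
  -- the upper end
  obtain ⟨d, hd⟩ : ∃ d, c = d + 1 := ⟨c - 1, by omega⟩
  have e1 : (a + c) * (a + c - 1).choose (c - 1) = K * c := by
    have := Nat.add_one_mul_choose_eq (a + c - 1) (c - 1)
    rw [show a + c - 1 + 1 = a + c by omega, show c - 1 + 1 = c by omega] at this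
    exact this
  have hne : c ≠ a := by
    rintro rfl
    have h2 : 2 ∣ K := by
      have hk : K = 2 * (c + c - 1).choose (c - 1) := by
        apply Nat.eq_of_mul_eq_mul_right (show 0 < c by omega)
        rw [← e1]; ring
      exact ⟨_, hk⟩
    have := h 2 Nat.prime_two h2
    omega
  have hlt : c < a := lt_of_le_of_ne hca hne
  have key : ∀ x : ℕ, a < x → x ≤ 2 * a → x ∣ K * c → x.Prime := by
    intro x hax hx2 hdvd
    set g := Nat.gcd x c with hg
    have hgpos : 0 < g := Nat.gcd_pos_of_pos_right x (by omega)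
    have hgx : g ∣ x := Nat.gcd_dvd_left x c
    have hco : Nat.Coprime (x / g) (c / g) := Nat.coprime_div_gcd_div_gcd hgpos
    have hxK : x / g ∣ K := by
      refine hco.dvd_of_dvd_mul_right ?_
      rw [← Nat.mul_div_assoc K (Nat.gcd_dvd_right x c)]
      exact Nat.div_dvd_div hgx hdvd
    have hxg : x / g * g = x := Nat.div_mul_cancel hgx
    have hgc : g ≤ c := Nat.le_of_dvd (by omega) (Nat.gcd_dvd_right x c)
    have hx1 : x / g ≠ 1 := fun e => by rw [e, one_mul] at hxg; omega
    obtain ⟨q, hq, hqx⟩ := Nat.exists_prime_and_dvd hx1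
    have haq := h q hq (hqx.trans hxK)
    obtain ⟨r, hr⟩ : q ∣ x := hqx.trans (Dvd.intro g hxg)
    rcases Nat.lt_or_ge r 2 with hr2 | hr2
    · have hr1 : r = 1 := by
        rcases Nat.eq_zero_or_pos r with e | e
        · subst e; omega
        · omega
      rw [hr, hr1, mul_one]; exact hq
    · have : q * 2 ≤ q * r := Nat.mul_le_mul_left q hr2
      omega
  have hn : (a + c).Prime := key _ (by omega) (by omega) (Dvd.intro _ e1)
  have ha1 : (a + 1).Prime := by
    refine key _ (by omega) (by omega) (Dvd.intro_left ((a + c).choose (c - 1)) ?_)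
    rw [pascal hc (by omega), Nat.add_sub_cancel]
  have hae : 2 ∣ a := by
    rcases ha1.eq_two_or_odd with e | e <;> omega
  have hco : ¬ 2 ∣ c := by
    rcases hn.eq_two_or_odd with e | e <;> omega
  have h1 : c + 1 ∣ a := by
    refine dvd_of_large h (le_of_prime_dvd_le (by omega) (by omega))
      (Dvd.intro_left ((a + c).choose (a - 1)) ?_)
    have hK' : K = (a + c).choose a := (Nat.choose_symm_add).symm
    rw [hK', pascal (by omega : 1 ≤ a) (by omega), Nat.add_sub_cancel_left]
  have h2 : a + c - 1 ∣ c * (c - 1) := by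
    refine dvd_of_large h (le_of_prime_dvd_even (by omega) (by omega) (by omega) (by omega))
      (Dvd.intro ((a + c) * (a + c - 2).choose (c - 2)) ?_)
    have e2 : (a + c - 1) * (a + c - 2).choose (c - 2) = (a + c - 1).choose (c - 1) * (c - 1) := by
      have := Nat.add_one_mul_choose_eq (a + c - 2) (c - 2)
      rw [show a + c - 2 + 1 = a + c - 1 by omega, show c - 2 + 1 = c - 1 by omega] at this
      exact this
    calc _ = (a + c) * ((a + c - 1) * (a + c - 2).choose (c - 2)) := by ring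
      _ = _ := by rw [e2, ← mul_assoc, e1, mul_assoc]
  have h3 : a + 2 ∣ c * (c - 1) := by
    refine dvd_of_large h (le_of_prime_dvd_even (by omega) (by omega) (by omega) (by omega))
      (Dvd.intro ((a + 1) * (a + c).choose (c - 2)) ?_)
    have e3 := pascal (n := a + c) (by omega : 1 ≤ c) (by omega)
    have e4 := pascal (n := a + c) (by omega : 1 ≤ c - 1) (by omega)
    rw [Nat.add_sub_cancel] at e3
    rw [show c - 1 - 1 = c - 2 by omega, show a + c - (c - 1) + 1 = a + 2 by omega] at e4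
    calc _ = (a + c).choose (c - 2) * (a + 2) * (a + 1) := by ring
      _ = _ := by rw [← e4, ← mul_assoc, e3]; ring
  obtain ⟨t, rfl⟩ := h1
  obtain ⟨u, hu⟩ := h2
  obtain ⟨c', rfl⟩ : ∃ c', c = c' + 2 := ⟨c - 2, by omega⟩
  rw [show c' + 2 - 1 = c' + 1 by omega] at hu h3
  rw [show (c' + 2 + 1) * t + (c' + 2) - 1 = (c' + 3) * t + (c' + 1) by
    rw [show c' + 2 + 1 = c' + 3 by omega]; omega] at hu
  have ht : 1 ≤ t := by
    rcases Nat.eq_zero_or_pos t with e | e
    · subst e; omega
    · exact e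
  have hu1 : 2 * u ≤ c' + 1 := by
    by_contra hcon
    have h5 : (c' + 2) * (c' + 1) < ((c' + 3) * t + (c' + 1)) * u := by
      have : 2 * (c' + 2) ≤ (c' + 3) * t + (c' + 1) := by nlinarith
      nlinarith
    omega
  have ht1 : t = 1 := by
    -- reduce modulo `c + 1`
    have hk : (c' + 3) * (u * (t + 1)) = (c' + 3) * c' + (2 * u + 2) := by nlinarith
    rcases Nat.lt_or_ge (u * (t + 1)) (c' + 1) with hlt' | hge
    · have : (c' + 3) * (u * (t + 1)) ≤ (c' + 3) * c' := Nat.mul_le_mul_left _ (by omega)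
      omega
    · have h6 : (c' + 3) * (c' + 1) ≤ (c' + 3) * (u * (t + 1)) := Nat.mul_le_mul_left _ hge
      have h7 : 2 * u = c' + 1 := by nlinarith
      nlinarith
  subst ht1
  have h12 : c' + 5 ∣ 12 := by
    rw [show (c' + 2 + 1) * 1 + 2 = c' + 5 by ring] at h3
    have e : (c' + 2) * (c' + 1) + (c' + 5) * 2 = (c' + 5) * c' + 12 := by ring
    exact (Nat.dvd_add_right (Dvd.intro c' rfl)).mp (e ▸ dvd_add h3 (Dvd.intro 2 rfl))
  have hc'le := Nat.le_of_dvd (by norm_num) h12
  have hc'odd : c' = 1 ∨ c' = 7 := by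
    have : c' ≤ 7 := by omega
    interval_cases c' <;> omega
  rcases hc'odd with rfl | rfl
  · exact Or.inr ⟨rfl, rfl⟩
  · exfalso
    have := h 2 Nat.prime_two (by norm_num [hKdef, Nat.choose])
    omega

end CfsgLib.HallSym
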