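import Cfsg.Prelude.Def_HallClasses
import Cfsg.Agent.HallAlt.Basic
import Mathlib.GroupTheory.GroupAction.Blocks
import Mathlib.GroupTheory.Perm.Cycle.Type
import Mathlib.Tactic

/-!
# Hall subgroups of finite groups and of stabilisers in symmetric groups
-/

set_option autoImplicit false

open scoped Pointwise
open Cfsg Equiv Equiv.Perm MulAction

namespace CfsgLib.HallSym

section Generic

variable {G : Type*} [Group G] [Finite G] {π : Set ℕ} {H K : Subgroup G}

theorem hall_eq_of_le (hH : IsPiHall π H) (hle : H ≤ K) (hK : IsPiSubgroup π K) : H = K := by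
  refine le_antisymm hle (Subgroup.relIndex_eq_one.mp ?_)
  by_contra hne
  obtain ⟨p, hp, hdvd⟩ := Nat.exists_prime_and_dvd hne
  exact hH.2 p hp (hK p hp (hdvd.trans (Subgroup.relIndex_dvd_card H K)))
    (hdvd.trans (Subgroup.relIndex_dvd_index_of_le hle))

omit [Finite G] in
theorem index_not_dvd (hH : IsPiHall π H) {W : Subgroup G} (hle : H ≤ W) :
    ∀ p : ℕ, p.Prime → p ∈ π → ¬ p ∣ W.index :=
  fun p hp hpπ h => hH.2 p hp hpπ (h.trans (Subgroup.index_dvd_of_le hle))

omit [Finite G] in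
theorem hall_map {G' : Type*} [Group G'] (hH : IsPiHall π H) (f : G →* G')
    (hf : Function.Surjective f) : IsPiHall π (H.map f) :=
  ⟨fun p hp h => hH.1 p hp (h.trans (Subgroup.card_map_dvd H f)),
    fun p hp hpπ h => hH.2 p hp hpπ (h.trans (H.index_map_dvd hf))⟩

omit [Finite G] in
theorem hall_subgroupOf (hH : IsPiHall π H) {W : Subgroup G} (hle : H ≤ W) :
    IsPiHall π (H.subgroupOf W) := by
  refine ⟨fun p hp h => hH.1 p hp ?_, fun p hp hpπ h => hH.2 p hp hpπ ?_⟩
  · rwa [Nat.card_congr (Subgroup.subgroupOfEquivOfLe hle).toEquiv] at h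
  · exact h.trans (Subgroup.relIndex_dvd_index_of_le hle)

omit [Finite G] in
theorem hall_conj (hH : IsPiHall π H) (g : G) :
    IsPiHall π (H.map (MulAut.conj g).toMonoidHom) :=
  hall_map hH _ (MulAut.conj g).surjective

theorem exists_conj_mem_hall (hH : IsPiHall π H) {p : ℕ} (hp : p.Prime) (hpπ : p ∈ π) (g : G)
    (hg : orderOf g = p) : ∃ w : G, w * g * w⁻¹ ∈ H := by
  haveI := Fact.mk hp
  have hT : IsPGroup p (Subgroup.zpowers g) :=
    IsPGroup.of_card (n := 1) (by rw [Nat.card_zpowers, hg, pow_one])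
  obtain ⟨w, -, hw⟩ := HallAlt.exists_conj_mem (M := H) (W := ⊤) le_top le_top hT
    (by rw [Subgroup.relIndex_top_right]; exact hH.2 p hp hpπ)
  exact ⟨w, hw g (Subgroup.mem_zpowers g)⟩

omit [Finite G] in
theorem hall_prime_dvd (hH : IsPiHall π H) {p : ℕ} (hp : p.Prime) (hpπ : p ∈ π)
    (hpG : p ∣ Nat.card G) : p ∣ Nat.card H := by
  rw [← Subgroup.card_mul_index H] at hpG
  exact (hp.dvd_mul.mp hpG).resolve_right (hH.2 p hp hpπ)

/-- the trivial cases: at most one prime of `π` divides the order, or all of them do -/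
theorem trivial_cases {π : Set ℕ}
    (h : (∀ r s : ℕ, r.Prime → s.Prime → r ∈ π → s ∈ π → r ∣ Nat.card G → s ∣ Nat.card G →
        r = s) ∨ ∀ r : ℕ, r.Prime → r ∣ Nat.card G → r ∈ π) :
    IsCPiGroup π G ∧ IsDPiGroup π G := by
  by_cases hall : ∀ r : ℕ, r.Prime → r ∣ Nat.card G → r ∈ π
  · have htop : IsPiHall π (⊤ : Subgroup G) :=
      ⟨fun p hp hd => hall p hp (by rwa [Subgroup.card_top] at hd),
        fun p hp _ hd => hp.not_dvd_one (by rwa [Subgroup.index_top] at hd)⟩
    refine ⟨⟨⟨⊤, htop⟩, fun H K hH hK => ⟨1, ?_⟩⟩, fun H K hH hK => ⟨1, ?_⟩⟩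
    · have e1 : H = ⊤ := hall_eq_of_le hH le_top htop.1
      have e2 : K = ⊤ := hall_eq_of_le hK le_top htop.1
      rw [e1, e2]
      exact (Subgroup.map_top_of_surjective _ (MulAut.conj (1 : G)).surjective).symm
    · have e1 : H = ⊤ := le_antisymm le_top (hH.2 htop.1 le_top)
      have e2 : K = ⊤ := le_antisymm le_top (hK.2 htop.1 le_top)
      rw [e1, e2]
      exact (Subgroup.map_top_of_surjective _ (MulAut.conj (1 : G)).surjective).symm
  have h1 := h.resolve_right hall
  by_cases hone : ∃ r : ℕ, r.Prime ∧ r ∈ π ∧ r ∣ Nat.card G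
  · obtain ⟨p, hp, hpπ, hpd⟩ := hone
    haveI := Fact.mk hp
    have hpg : ∀ K : Subgroup G, IsPiSubgroup π K → IsPGroup p K := by
      intro K hK
      refine IsPGroup.of_card (n := (Nat.card K).primeFactorsList.length)
        (Nat.eq_prime_pow_of_unique_prime_dvd Nat.card_pos.ne' fun {q} hq hqd => ?_)
      exact h1 q p hq hp (hK q hq hqd) hpπ (hqd.trans (Subgroup.card_subgroup_dvd_card K)) hpd
    have hsyl : ∀ P : Sylow p G, IsPiHall π (P : Subgroup G) := by
      intro P
      refine ⟨fun q hq hqd => ?_, fun q hq hqπ hqd => ?_⟩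
      · obtain ⟨n, hn⟩ := IsPGroup.iff_card.mp P.2
        rw [hn] at hqd
        rw [(Nat.prime_dvd_prime_iff_eq hq hp).mp (hq.dvd_of_dvd_pow hqd)]
        exact hpπ
      · have hqG : q ∣ Nat.card G := hqd.trans (Subgroup.index_dvd_card _)
        obtain rfl := h1 q p hq hp hqπ hpπ hqG hpd
        exact P.not_dvd_index hqd
    have hfind : ∀ K : Subgroup G, IsPiSubgroup π K →
        ∃ P : Sylow p G, K ≤ (P : Subgroup G) := fun K hK => (hpg K hK).exists_le_sylow
    refine ⟨⟨⟨_, hsyl default⟩, fun H K hH hK => ?_⟩, fun H K hH hK => ?_⟩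
    · obtain ⟨P, hP⟩ := hfind H hH.1
      obtain ⟨Q, hQ⟩ := hfind K hK.1
      have e1 := hall_eq_of_le hH hP (hsyl P).1
      have e2 := hall_eq_of_le hK hQ (hsyl Q).1
      obtain ⟨g, hg⟩ := MulAction.exists_smul_eq G P Q
      refine ⟨g, ?_⟩
      rw [e2, ← hg, Sylow.coe_subgroup_smul, e1]
      rfl
    · obtain ⟨P, hP⟩ := hfind H hH.1
      obtain ⟨Q, hQ⟩ := hfind K hK.1
      have e1 := le_antisymm hP (hH.2 (hsyl P).1 hP)
      have e2 := le_antisymm hQ (hK.2 (hsyl Q).1 hQ)
      obtain ⟨g, hg⟩ := MulAction.exists_smul_eq G P Q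
      refine ⟨g, ?_⟩
      rw [e2, ← hg, Sylow.coe_subgroup_smul, e1]
      rfl
  · push_neg at hone
    have hbot : ∀ K : Subgroup G, IsPiSubgroup π K → K = ⊥ := by
      intro K hK
      rw [← Subgroup.card_eq_one]
      by_contra hne
      obtain ⟨q, hq, hqd⟩ := Nat.exists_prime_and_dvd hne
      exact hone q hq (hK q hq hqd) (hqd.trans (Subgroup.card_subgroup_dvd_card K))
    refine ⟨⟨⟨⊥, fun q hq hqd => absurd hqd (by rw [Subgroup.card_bot]; exact hq.not_dvd_one),
      fun q hq hqπ hqd => hone q hq hqπ (hqd.trans (Subgroup.index_dvd_card _))⟩,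
      fun H K hH hK => ⟨1, ?_⟩⟩, fun H K hH hK => ⟨1, ?_⟩⟩
    · rw [hbot H hH.1, hbot K hK.1, Subgroup.map_bot]
    · rw [hbot H hH.1, hbot K hK.1, Subgroup.map_bot]

/-- every `π`-subgroup lies in a maximal one -/
theorem exists_maximal (hK : IsPiSubgroup π K) :
    ∃ L : Subgroup G, K ≤ L ∧ Maximal (IsPiSubgroup π) L := by
  have hfin : {L : Subgroup G | IsPiSubgroup π L}.Finite := Set.toFinite _
  obtain ⟨L, hKL, hL⟩ := hfin.exists_le_maximal hK
  exact ⟨L, hKL, hL⟩

theorem hall_of_maximal (hD : IsDPiGroup π G) (hK : Maximal (IsPiSubgroup π) K) :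
    IsPiHall π K := by
  refine ⟨hK.1, fun p hp hpπ hdvd => ?_⟩
  haveI := Fact.mk hp
  obtain ⟨P⟩ : Nonempty (Sylow p G) := inferInstance
  have hPπ : IsPiSubgroup π (P : Subgroup G) := by
    intro q hq hqd
    obtain ⟨n, hn⟩ := IsPGroup.iff_card.mp P.2
    rw [hn] at hqd
    rw [(Nat.prime_dvd_prime_iff_eq hq hp).mp (hq.dvd_of_dvd_pow hqd)]
    exact hpπ
  obtain ⟨L, hPL, hL⟩ := exists_maximal hPπ
  obtain ⟨g, rfl⟩ := hD L K hL hK
  rw [Subgroup.index_map_of_bijective (MulAut.conj g).bijective] at hdvd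
  exact P.not_dvd_index (hdvd.trans (Subgroup.index_dvd_of_le hPL))

end Generic

section Perm

variable {α : Type*} [Fintype α] [DecidableEq α]

omit [Fintype α] [DecidableEq α] in
theorem mem_stab {U : Set α} {g : Perm α} (hg : g ∈ stabilizer (Perm α) U) (x : α) :
    g x ∈ U ↔ x ∈ U := by
  have e : g • U = U := hg
  conv_lhs => rw [← e]
  exact Set.smul_mem_smul_set_iff (a := g)

/-- the action of the stabiliser of a set on that set -/
def toSub (U : Set α) : stabilizer (Perm α) U →* Perm U where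
  toFun g := (g : Perm α).subtypePerm (mem_stab g.2)
  map_one' := by ext x; rfl
  map_mul' g h := by ext x; rfl

omit [Fintype α] in
theorem toSub_surjective (U : Set α) [DecidablePred (· ∈ U)] :
    Function.Surjective (toSub U) := by
  intro f
  refine ⟨⟨Perm.ofSubtype f, ?_⟩, ?_⟩
  · rw [mem_stabilizer_iff]
    ext x
    rw [Set.mem_smul_set_iff_inv_smul_mem, Perm.smul_def, ← map_inv]
    by_cases hx : x ∈ U
    · rw [Perm.ofSubtype_apply_of_mem _ hx]
      simp [hx, Subtype.prop]
    · rw [Perm.ofSubtype_apply_of_not_mem _ hx]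
  · ext x
    show (Perm.ofSubtype f) (x : α) = _
    rw [Perm.ofSubtype_apply_coe]

omit [DecidableEq α] in
theorem index_stabilizer_set (U : Set α) :
    (stabilizer (Perm α) U).index = (Fintype.card α).choose U.ncard := by
  classical
  rw [index_stabilizer]
  have horb : MulAction.orbit (Perm α) U =
      (fun s : Finset α => (s : Set α)) ''
        ((Finset.univ : Finset α).powersetCard U.ncard : Finset (Finset α)) := by
    ext V
    constructor
    · rintro ⟨g, rfl⟩
      refine ⟨(g • U).toFinset, ?_, by simp⟩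
      rw [Finset.mem_coe, Finset.mem_powersetCard]
      refine ⟨Finset.subset_univ _, ?_⟩
      rw [← Set.ncard_eq_toFinset_card', Set.ncard_smul_set]
    · rintro ⟨s, hs, rfl⟩
      rw [Finset.mem_coe, Finset.mem_powersetCard] at hs
      obtain ⟨e⟩ : Nonempty ({x // x ∈ U} ≃ {x // x ∈ (s : Set α)}) := by
        refine Finite.card_eq.mp ?_
        show Nat.card U = Nat.card (s : Set α)
        rw [Nat.card_coe_set_eq, Nat.card_coe_set_eq, Set.ncard_coe_finset, hs.2]
      refine ⟨Equiv.extendSubtype e, Set.eq_of_subset_of_ncard_le ?_ ?_⟩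
      · rintro _ ⟨x, hx, rfl⟩
        exact e.extendSubtype_mem x hx
      · simp [Set.ncard_smul_set, hs.2]
  rw [horb, Set.ncard_image_of_injective _ Finset.coe_injective, Set.ncard_coe_finset,
    Finset.card_powersetCard, Finset.card_univ]

/-- a Hall subgroup preserving `U` restricts to a Hall subgroup on `U` -/
theorem restrict_hall {π : Set ℕ} {H : Subgroup (Perm α)} (hH : IsPiHall π H) {U : Set α}
    (hU : H ≤ stabilizer (Perm α) U) :
    IsPiHall π ((H.subgroupOf (stabilizer (Perm α) U)).map (toSub U)) ∧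
      ∀ p : ℕ, p.Prime → p ∈ π → ¬ p ∣ (Fintype.card α).choose U.ncard := by
  classical
  refine ⟨hall_map (hall_subgroupOf hH hU) _ (toSub_surjective U), ?_⟩
  rw [← index_stabilizer_set U]
  exact index_not_dvd hH hU

omit [DecidableEq α] in
/-- a group permuting a covering family of sets -/
theorem card_dvd_of_invariant (P : Subgroup (Perm α)) (C : Finset (Set α))
    (hcov : ∀ x : α, ∃ U ∈ C, x ∈ U) (hinv : ∀ g ∈ P, ∀ U ∈ C, g • U ∈ C) :
    Nat.card P ∣ (∏ U ∈ C, (U.ncard).factorial) * C.card.factorial := by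
  classical
  letI : MulAction P C :=
    { smul := fun g U => ⟨(g : Perm α) • (U : Set α), hinv g g.2 U U.2⟩
      one_smul := fun U => Subtype.ext (one_smul (Perm α) (U : Set α))
      mul_smul := fun g h U => Subtype.ext (mul_smul (g : Perm α) (h : Perm α) (U : Set α)) }
  set φ : P →* Perm C := MulAction.toPermHom P C with hφ
  have hker : ∀ (g : φ.ker) (U : C), (g : Perm α) ∈ stabilizer (Perm α) (U : Set α) := by
    intro g U
    have := DFunLike.congr_fun (MonoidHom.mem_ker.mp g.2) U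
    exact congrArg Subtype.val this
  let ψ : φ.ker →* ((U : C) → Perm (U : Set α)) :=
    Pi.monoidHom fun U =>
      (toSub (U : Set α)).comp
        { toFun := fun g => ⟨(g : Perm α), hker g U⟩
          map_one' := rfl
          map_mul' := fun _ _ => rfl }
  have hψ : Function.Injective ψ := by
    intro g h e
    refine Subtype.ext (Subtype.ext (Equiv.ext fun x => ?_))
    obtain ⟨U, hU, hx⟩ := hcov x
    exact congrArg Subtype.val (DFunLike.congr_fun (congr_fun e ⟨U, hU⟩) ⟨x, hx⟩)
  have h1 : Nat.card φ.ker ∣ ∏ U ∈ C, (U.ncard).factorial := by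
    refine (Subgroup.card_dvd_of_injective ψ hψ).trans ?_
    rw [Nat.card_pi, ← Finset.prod_coe_sort C (fun U => (U.ncard).factorial)]
    refine dvd_of_eq (Finset.prod_congr rfl fun U _ => ?_)
    rw [Nat.card_perm, Nat.card_coe_set_eq]
  have h2 : Nat.card φ.range ∣ C.card.factorial := by
    refine (Subgroup.card_subgroup_dvd_card φ.range).trans ?_
    rw [Nat.card_perm, Nat.card_eq_fintype_card, Fintype.card_coe]
  have h3 : Nat.card P = Nat.card φ.ker * Nat.card φ.range := by
    rw [← Subgroup.card_mul_index φ.ker, Subgroup.index_ker]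
  rw [h3]
  exact Nat.mul_dvd_mul h1 h2

end Perm

end CfsgLib.HallSym
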