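import Cfsg.Agent.HallSym.Basic
import Cfsg.Agent.Jordan.PrimeCycle

/-!
# Prime cycles in Hall subgroups of symmetric groups
-/

set_option autoImplicit false

open scoped Pointwise
open Cfsg Equiv Equiv.Perm MulAction

namespace CfsgLib.HallSym

universe u

variable {α : Type u} [Fintype α] [DecidableEq α] {π : Set ℕ} {H : Subgroup (Perm α)}

omit [Fintype α] [DecidableEq α] in
theorem smul_subgroup_set (h : H) (U : Set α) : h • U = (h : Perm α) • U := rfl

omit [DecidableEq α] in
theorem prime_le_of_dvd_card {p : ℕ} (hp : p.Prime) {K : Subgroup (Perm α)}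
    (h : p ∣ Nat.card K) : p ≤ Fintype.card α := by
  have h2 := h.trans (Subgroup.card_subgroup_dvd_card K)
  rw [Nat.card_perm, Nat.card_eq_fintype_card] at h2
  exact (hp.dvd_factorial).mp h2

theorem exists_cycle_mem (hH : IsPiHall π H) {p : ℕ} (hp : p.Prime) (hpπ : p ∈ π)
    (hpn : p ≤ Fintype.card α) : ∃ g ∈ H, g.IsCycle ∧ g.support.card = p ∧ orderOf g = p := by
  obtain ⟨g, hg⟩ := (Equiv.Perm.exists_with_cycleType_iff α (m := {p})).mpr
    ⟨by simpa using hpn, by simpa using hp.two_le⟩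
  have hord : orderOf g = p := by rw [← lcm_cycleType, hg]; simp
  obtain ⟨w, hw⟩ := exists_conj_mem_hall hH hp hpπ g hord
  have hct : (w * g * w⁻¹).cycleType = {p} := by rw [cycleType_conj, hg]
  refine ⟨_, hw, ?_, ?_, ?_⟩
  · exact card_cycleType_eq_one.mp (by rw [hct]; rfl)
  · rw [← sum_cycleType, hct]; simp
  · rw [← lcm_cycleType, hct]; simp

theorem support_subset_orbit {g : Perm α} (hg : g ∈ H) (hc : g.IsCycle) {x : α}
    (hx : x ∈ g.support) : (g.support : Set α) ⊆ MulAction.orbit H x := by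
  intro y hy
  obtain ⟨i, hi⟩ := hc.sameCycle (mem_support.mp hx) (mem_support.mp hy)
  exact ⟨⟨g ^ i, zpow_mem hg i⟩, hi⟩

theorem exists_orbit_ge (hH : IsPiHall π H) {p : ℕ} (hp : p.Prime) (hpπ : p ∈ π)
    (hpn : p ≤ Fintype.card α) : ∃ x : α, p ≤ (MulAction.orbit H x).ncard := by
  obtain ⟨g, hg, hc, hcard, -⟩ := exists_cycle_mem hH hp hpπ hpn
  obtain ⟨x, hx⟩ := hc.nonempty_support
  refine ⟨x, ?_⟩
  rw [← hcard, ← Set.ncard_coe_finset]
  exact Set.ncard_le_ncard (support_subset_orbit hg hc hx)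

/-- in an imprimitive group every prime cycle is no longer than a block -/
theorem prime_le_block {B : Set α} (hB : IsBlock H B) (htr : IsPretransitive H α)
    (hBne : B.Nonempty) (hb : 1 < B.ncard) {g : Perm α} (hg : g ∈ H) (hc : g.IsCycle) {p : ℕ}
    (hp : p.Prime) (hcard : g.support.card = p) (hord : orderOf g = p) : p ≤ B.ncard := by
  obtain ⟨x, hx⟩ := hc.nonempty_support
  obtain ⟨b0, hb0⟩ := hBne
  obtain ⟨h, hh⟩ := htr.exists_smul_eq b0 x
  set B' : Set α := h • B with hB'
  have hxB : x ∈ B' := hh ▸ Set.smul_mem_smul_set hb0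
  have hB'blk : IsBlock H B' := hB.translate h
  have hcardB : B'.ncard = B.ncard := Set.ncard_smul_set h B
  have hmeet : ∀ k : H, ∀ y ∈ B', k • y ∈ B' → k • B' = B' := by
    intro k y hy hky
    rcases hB'blk.smul_eq_or_disjoint k with e | e
    · exact e
    · exact absurd hky (Set.disjoint_left.mp e (Set.smul_mem_smul_set hy))
  set gH : H := ⟨g, hg⟩ with hgH
  by_cases hfix : gH • B' = B'
  · rw [← hcardB, ← hcard, ← Set.ncard_coe_finset]
    refine Set.ncard_le_ncard ?_
    intro y hy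
    obtain ⟨i, hi⟩ := hc.sameCycle (mem_support.mp hx) (mem_support.mp hy)
    have hmem : gH ^ i ∈ stabilizer H B' := zpow_mem hfix i
    have : (gH ^ i) • x ∈ (gH ^ i) • B' := Set.smul_mem_smul_set hxB
    rw [mem_stabilizer_iff.mp hmem] at this
    rw [← hi]
    exact this
  · exfalso
    obtain ⟨y, hy, hyx⟩ := Set.exists_ne_of_one_lt_ncard (by omega : 1 < B'.ncard) x
    have hysupp : y ∈ g.support := by
      rw [mem_support]
      intro e
      exact hfix (hmeet gH y hy (by show g y ∈ B'; rw [e]; exact hy))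
    obtain ⟨i, hi⟩ := hc.sameCycle (mem_support.mp hx) (mem_support.mp hysupp)
    have hi' : (gH ^ i) • x = y := hi
    have hstab : gH ^ i ∈ stabilizer H B' := hmeet _ x hxB (hi' ▸ hy)
    have hio : ¬ (p : ℤ) ∣ i := fun hd => by
      apply hyx
      rw [← hi, orderOf_dvd_iff_zpow_eq_one.mp (by rw [hord]; exact hd)]
      rfl
    have hco : IsCoprime (p : ℤ) i := (Nat.prime_iff_prime_int.mp hp).coprime_iff_not_dvd.mpr hio
    obtain ⟨a, b, hab⟩ := hco
    apply hfix
    have e : gH = (gH ^ i) ^ b := by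
      rw [← zpow_mul]
      conv_lhs => rw [← zpow_one gH, ← hab]
      rw [zpow_add, zpow_mul' gH a, zpow_natCast]
      have : gH ^ p = 1 := Subtype.ext (by
        show g ^ p = 1
        rw [← hord, pow_orderOf_eq_one])
      rw [this, one_zpow, one_mul, mul_comm]
    rw [e]
    exact mem_stabilizer_iff.mp (zpow_mem hstab b)

/-- no transitive group of order dividing `p (p + 2)` contains a `p`-cycle and a `(p + 2)`-cycle -/
theorem twin_false {p : ℕ} (hp : p.Prime) (hn : Fintype.card α = p + 2) (hnp : (p + 2).Prime)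
    (hcard : Nat.card H ∣ (p + 2) * p) {c g : Perm α} (hc : c ∈ H) (hcc : c.IsCycle)
    (hcs : c.support.card = p + 2) (hco : orderOf c = p + 2) (hg : g ∈ H)
    (hgs : g.support.card = p) (hgo : orderOf g = p) : False := by
  haveI := Fact.mk hnp
  have hCle : Subgroup.zpowers c ≤ H := Subgroup.zpowers_le.mpr hc
  set K := Subgroup.zpowers (g * c * g⁻¹) with hK
  have hKle : K ≤ H := Subgroup.zpowers_le.mpr (mul_mem (mul_mem hg hc) (inv_mem hg))
  have hidx : (Subgroup.zpowers c).relIndex H * (p + 2) ∣ (p + 2) * p := by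
    refine Eq.subst (motive := fun z => z ∣ (p + 2) * p) ?_ hcard
    have e1 := Subgroup.card_mul_index ((Subgroup.zpowers c).subgroupOf H)
    rw [Nat.card_congr (Subgroup.subgroupOfEquivOfLe hCle).toEquiv, Nat.card_zpowers, hco] at e1
    rw [← e1, mul_comm]
    rfl
  have hrp : (Subgroup.zpowers c).relIndex H ∣ p :=
    (mul_dvd_mul_iff_right (by omega : (p + 2) ≠ 0)).mp (hidx.trans (by rw [mul_comm]))
  have hKC : K ≤ Subgroup.zpowers c := by
    rw [← Subgroup.relIndex_eq_one]
    have hKcard : Nat.card K = p + 2 := by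
      rw [hK, Nat.card_zpowers]
      exact (SemiconjBy.orderOf_eq g (by simp [SemiconjBy, mul_assoc])).symm.trans hco
    rcases (Nat.dvd_prime hnp).mp (hKcard ▸ Subgroup.relIndex_dvd_card (Subgroup.zpowers c) K)
      with e | e
    · exact e
    · have h1 : (Subgroup.zpowers c).relIndex H ≠ 0 := by
        intro e0
        rw [e0, zero_dvd_iff] at hrp
        exact hp.ne_zero hrp
      have := Subgroup.relIndex_le_of_le_right hKle h1
      have := Nat.le_of_dvd hp.pos hrp
      omega
  obtain ⟨k, hk⟩ : ∃ k : ℕ, c ^ k = g * c * g⁻¹ :=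
    (Subgroup.mem_zpowers_iff.mp (hKC (Subgroup.mem_zpowers _))).elim fun z hz => by
      refine ⟨(z % (orderOf c : ℤ)).toNat, ?_⟩
      rw [← zpow_natCast, Int.toNat_of_nonneg (Int.emod_nonneg _ (by omega)), zpow_mod_orderOf, hz]
  have hiter : ∀ j : ℕ, g ^ j * c * (g ^ j)⁻¹ = c ^ (k ^ j) := by
    intro j
    induction j with
    | zero => simp
    | succ j ih =>
      rw [pow_succ' g, mul_inv_rev,
        show g * g ^ j * c * ((g ^ j)⁻¹ * g⁻¹) = g * (g ^ j * c * (g ^ j)⁻¹) * g⁻¹ by group, ih]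
      rw [← conj_pow, ← hk, ← pow_mul, pow_succ']
  have hk0 : ((k : ZMod (p + 2))) ≠ 0 := by
    intro e
    rw [ZMod.natCast_eq_zero_iff] at e
    rw [orderOf_dvd_iff_pow_eq_one.mp (hco.symm ▸ e), eq_comm, mul_inv_eq_one] at hk
    simp at hk
    exact hcc.ne_one hk
  have hk1 : c ^ k = c := by
    have h1 := hiter (p + 1)
    rw [pow_succ' g, ← hgo, pow_orderOf_eq_one, mul_one, hgo, ← hk] at h1
    rw [h1]
    conv_rhs => rw [← pow_one c]
    rw [pow_eq_pow_iff_modEq, hco, ← ZMod.natCast_eq_natCast_iff, Nat.cast_pow, Nat.cast_one]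
    exact ZMod.pow_card_sub_one_eq_one hk0
  rw [hk1] at hk
  have hcomm : Commute g c := (eq_mul_inv_iff_mul_eq.mp hk).symm
  obtain ⟨x, hx⟩ : ∃ x, x ∉ g.support := by
    by_contra hcon
    push_neg at hcon
    rw [Finset.eq_univ_of_forall hcon, Finset.card_univ] at hgs
    omega
  rw [notMem_support] at hx
  have hall : ∀ y, g y = y := by
    intro y
    have hcu : c.support = Finset.univ := Finset.eq_univ_of_card _ (by rw [hcs, hn])
    obtain ⟨i, rfl⟩ := hcc.sameCycle (x := x) (y := y) (mem_support.mp (by simp [hcu]))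
      (mem_support.mp (by simp [hcu]))
    rw [← Perm.mul_apply, (hcomm.zpow_right i).eq, Perm.mul_apply, hx]
  have : g = 1 := Equiv.ext hall
  rw [this, orderOf_one] at hgo
  exact hp.one_lt.ne hgo

end CfsgLib.HallSym
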