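import Cfsg.Agent.HallSym.Arith
import Cfsg.Agent.HallSym.Cycle

/-!
# The Hall subgroups of the symmetric groups
-/

set_option autoImplicit false

open scoped Pointwise Nat
open Cfsg Equiv Equiv.Perm MulAction

namespace CfsgLib.HallSym

/-- two primes of `π` are at most `n` -/
def TwoPi (π : Set ℕ) (n : ℕ) : Prop :=
  ∃ r s : ℕ, r.Prime ∧ s.Prime ∧ r ≠ s ∧ r ∈ π ∧ s ∈ π ∧ r ≤ n ∧ s ≤ n

/-- a prime at most `n` is outside `π` -/
def Miss (π : Set ℕ) (n : ℕ) : Prop := ∃ r : ℕ, r.Prime ∧ r ≤ n ∧ r ∉ π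

/-- the primes of `π` up to `n` are 2 and 3 -/
def Only23 (π : Set ℕ) (n : ℕ) : Prop :=
  ∀ r : ℕ, r.Prime → r ≤ n → (r ∈ π ↔ (r = 2 ∨ r = 3))

theorem five_le {π : Set ℕ} {n : ℕ} (h2 : TwoPi π n) (hm : Miss π n) : 5 ≤ n := by
  obtain ⟨r, s, hr, hs, hrs, hrπ, hsπ, hrn, hsn⟩ := h2
  obtain ⟨t, ht, htn, htπ⟩ := hm
  by_contra h
  have hcase : ∀ q : ℕ, q.Prime → q ≤ n → q = 2 ∨ q = 3 := by
    intro q hq hqn
    have := hq.two_le
    have hq4 : q ≠ 4 := fun e => by subst e; exact absurd hq (by decide)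
    omega
  have ht' : t ≠ r := fun e => htπ (e ▸ hrπ)
  have ht'' : t ≠ s := fun e => htπ (e ▸ hsπ)
  rcases hcase r hr hrn with rfl | rfl <;> rcases hcase s hs hsn with rfl | rfl <;>
    rcases hcase t ht htn with rfl | rfl <;> omega

theorem eleven_choose : (11 : ℕ).choose 3 = 165 := by decide

theorem bell_dvd (b : ℕ) {i m : ℕ} (hi : 2 ≤ i) (him : i ≤ m) :
    (i * b - 1).choose (b - 1) ∣ Nat.uniformBell m b := by
  induction m, him using Nat.le_induction with
  | base =>
    obtain ⟨k, rfl⟩ : ∃ k, i = k + 1 := ⟨i - 1, by omega⟩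
    rw [Nat.uniformBell_succ_left, add_one_mul]
    exact Dvd.intro _ rfl
  | succ l hl ih' =>
    rw [Nat.uniformBell_succ_left]
    exact dvd_mul_of_dvd_right ih' _

universe u

variable {α : Type u} [Fintype α] [DecidableEq α] {π : Set ℕ} {H : Subgroup (Perm α)}

omit [DecidableEq α] in
theorem orbit_ncard_dvd (x : α) : (MulAction.orbit H x).ncard ∣ Nat.card H := by
  rw [← index_stabilizer]
  exact Subgroup.index_dvd_card _

omit [Fintype α] [DecidableEq α] in
theorem mem_stab_orbit_union {U : Set α} (hU : ∀ h ∈ H, ∀ x ∈ U, h x ∈ U) :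
    H ≤ stabilizer (Perm α) U := by
  intro h hh
  rw [mem_stabilizer_iff]
  apply Set.Subset.antisymm
  · rintro _ ⟨x, hx, rfl⟩
    exact hU h hh x hx
  · intro x hx
    exact ⟨h⁻¹ x, hU _ (inv_mem hh) x hx, by simp⟩

omit [Fintype α] [DecidableEq α] in
theorem orbit_invariant (x : α) : ∀ h ∈ H, ∀ y ∈ MulAction.orbit H x, h y ∈ MulAction.orbit H x :=
  fun h hh _ hy => MulAction.mem_orbit_of_mem_orbit (⟨h, hh⟩ : H) hy

omit [Fintype α] in
theorem restrict_transitive {U : Set α}
    (htr : ∀ x ∈ U, ∀ y ∈ U, ∃ h ∈ H, h ∈ stabilizer (Perm α) U ∧ h x = y) :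
    IsPretransitive ((H.subgroupOf (stabilizer (Perm α) U)).map (toSub U)) U := by
  refine ⟨fun x y => ?_⟩
  obtain ⟨h, hh, hU, hxy⟩ := htr x x.2 y y.2
  exact ⟨⟨toSub U ⟨h, hU⟩, Subgroup.mem_map_of_mem _ hh⟩, Subtype.ext hxy⟩

omit [DecidableEq α] in
/-- the number of ways to split `v + w` points is prime to `π` -/
theorem split_choose (hH : IsPiHall π H) {V W : Set α} (hV : H ≤ stabilizer (Perm α) V)
    (hW : H ≤ stabilizer (Perm α) W) (hd : Disjoint V W) :
    ∀ p : ℕ, p.Prime → p ∈ π → ¬ p ∣ (V.ncard + W.ncard).choose V.ncard := by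
  classical
  have hU : H ≤ stabilizer (Perm α) (V ∪ W) := fun h hh => by
    rw [mem_stabilizer_iff, Set.smul_set_union, mem_stabilizer_iff.mp (hV hh),
      mem_stabilizer_iff.mp (hW hh)]
  have h1 := (restrict_hall hH hU).1
  set V' : Set (V ∪ W : Set α) := Subtype.val ⁻¹' V with hV'
  have h2 : (H.subgroupOf (stabilizer (Perm α) (V ∪ W))).map (toSub (V ∪ W)) ≤
      stabilizer (Perm (V ∪ W : Set α)) V' := by
    apply mem_stab_orbit_union
    rintro _ ⟨g, hg, rfl⟩ x hx
    show (g : Perm α) (x : α) ∈ V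
    exact (mem_stab (hV (Subgroup.mem_subgroupOf.mp hg)) _).mpr hx
  have h3 := (restrict_hall h1 h2).2
  have e1 : V'.ncard = V.ncard := by
    rw [hV', Set.ncard_preimage_of_injective_subset_range Subtype.val_injective]
    rw [Subtype.range_coe]
    exact Set.subset_union_left
  have e2 : Fintype.card (V ∪ W : Set α) = V.ncard + W.ncard := by
    rw [← Nat.card_eq_fintype_card, Nat.card_coe_set_eq, Set.ncard_union_eq hd]
  rw [e1, e2] at h3
  exact h3

/-- a primitive group leads to a contradiction -/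
theorem primitive_false (hH : IsPiHall π H) (hprim : IsPreprimitive H α)
    (h2 : TwoPi π (Fintype.card α)) (hm : Miss π (Fintype.card α)) : False := by
  classical
  have h5 := five_le h2 hm
  set n := Fintype.card α with hn
  have hbig : ∀ p : ℕ, p.Prime → p ∈ π → p ≤ n → n ≤ p + 2 := by
    intro p hp hpπ hpn
    by_contra hlt
    obtain ⟨g, hg, hc, hcard, -⟩ := exists_cycle_mem hH hp hpπ hpn
    have hA := CfsgLib.Jordan.alternatingGroup_le_of_prime_cycle H hprim hp (by omega) hc hcard hg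
    obtain ⟨t, ht, htn, htπ⟩ := hm
    refine htπ (hH.1 t ht (dvd_trans ?_ (Subgroup.card_dvd_of_le hA)))
    have hA2 : 2 * Nat.card (alternatingGroup α) = n ! := by
      haveI : Nontrivial α := Fintype.one_lt_card_iff_nontrivial.mp (by omega)
      rw [Nat.card_eq_fintype_card, two_mul_card_alternatingGroup, Fintype.card_perm]
    have htd : t ∣ n ! := (ht.dvd_factorial).mpr htn
    by_cases ht2 : t = 2
    · subst ht2
      have h4 : 2 * 2 ∣ n ! :=
        Dvd.dvd.trans (by decide : 2 * 2 ∣ (4 : ℕ)!) (Nat.factorial_dvd_factorial (by omega))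
      rw [← hA2] at h4
      exact (mul_dvd_mul_iff_left (two_ne_zero)).mp h4
    · rw [← hA2] at htd
      exact (ht.dvd_mul.mp htd).resolve_left
        (fun e => ht2 ((Nat.prime_dvd_prime_iff_eq ht Nat.prime_two).mp e))
  haveI : Nonempty α := Fintype.card_pos_iff.mp (by omega)
  obtain ⟨x⟩ := ‹Nonempty α›
  have hnπ : ∀ r : ℕ, r.Prime → r ∣ n → r ∈ π := by
    intro r hr hrn
    refine hH.1 r hr (hrn.trans ?_)
    have : (MulAction.orbit H x).ncard = n := by
      rw [MulAction.orbit_eq_univ, Set.ncard_univ, Nat.card_eq_fintype_card (α := α)]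
    exact this ▸ orbit_ncard_dvd x
  have hnprime : n.Prime := by
    obtain ⟨r, hr, hrn⟩ := Nat.exists_prime_and_dvd (show n ≠ 1 by omega)
    have hle := Nat.le_of_dvd (by omega) hrn
    have := hbig r hr (hnπ r hr hrn) hle
    obtain ⟨k, hk⟩ := hrn
    rcases Nat.lt_or_ge k 2 with hk2 | hk2
    · interval_cases k
      · omega
      · rw [hk, mul_one]; exact hr
    · have : r * 2 ≤ r * k := Nat.mul_le_mul_left r hk2
      have := hr.two_le
      exfalso
      rcases Nat.lt_or_ge r 3 with h3 | h3 <;> omega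
  have hnodd : n % 2 = 1 := hnprime.eq_two_or_odd.resolve_left (by omega)
  obtain ⟨r, s, hr, hs, hrs, hrπ, hsπ, hrn, hsn⟩ := h2
  have hkey : ∀ q : ℕ, q.Prime → q ∈ π → q ≤ n → q = n ∨ q + 2 = n := by
    intro q hq hqπ hqn
    have h := hbig q hq hqπ hqn
    have : q + 1 ≠ n := fun e => by
      rcases hq.eq_two_or_odd with e2 | e2 <;> omega
    omega
  obtain ⟨p, hp, hpπ, hpn⟩ : ∃ p : ℕ, p.Prime ∧ p ∈ π ∧ p + 2 = n := by
    rcases hkey r hr hrπ hrn with e | e
    · rcases hkey s hs hsπ hsn with e' | e'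
      · omega
      · exact ⟨s, hs, hsπ, e'⟩
    · exact ⟨r, hr, hrπ, e⟩
  obtain ⟨g, hg, -, hgs, hgo⟩ := exists_cycle_mem hH hp hpπ (by omega)
  obtain ⟨c, hc, hcc, hcs, hco⟩ := exists_cycle_mem hH hnprime (hnπ n hnprime dvd_rfl) le_rfl
  refine twin_false hp hpn.symm (hpn ▸ hnprime) ?_ hc hcc (hpn ▸ hcs) (hpn ▸ hco) hg hgs hgo
  have hdiv : Nat.card H ∣ n ! := by
    have := Subgroup.card_subgroup_dvd_card H
    rwa [Nat.card_perm, Nat.card_eq_fintype_card (α := α)] at this
  have hfac : n ! = (p + 2) * p * ((p + 1) * (p - 1)!) := by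
    rw [← hpn, Nat.factorial_succ, Nat.factorial_succ, ← Nat.mul_factorial_pred hp.ne_zero]
    ring
  rw [hfac] at hdiv
  refine (Nat.Coprime.dvd_of_dvd_mul_right ?_ hdiv)
  refine Nat.coprime_of_dvd fun q hq h1 h1' => ?_
  have hqn : q ≤ n := (prime_le_of_dvd_card hq h1)
  have hqp : q = p ∨ q = n := by
    rcases hkey q hq (hH.1 q hq h1) hqn with e | e
    · exact Or.inr e
    · exact Or.inl (by omega)
  rcases hq.dvd_mul.mp h1' with h | h
  · have h' := Nat.le_of_dvd (by omega) h
    rcases hqp with rfl | rfl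
    · exact hq.not_dvd_one ((Nat.dvd_add_right dvd_rfl).mp h)
    · omega
  · have := (hq.dvd_factorial).mp h
    omega

/-- transitive Hall subgroups -/
theorem transitive_case : ∀ (n : ℕ) {α : Type u} [Fintype α] [DecidableEq α],
    Fintype.card α = n → ∀ {π : Set ℕ} {H : Subgroup (Perm α)}, IsPiHall π H →
    IsPretransitive H α → TwoPi π n → Miss π n →
    n = 8 ∧ Only23 π n ∧
      ∃ U : Set α, U.ncard = 4 ∧ H = stabilizer (Perm α) ({U, Uᶜ} : Set (Set α)) := by
  intro n
  induction n using Nat.strong_induction_on with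
  | _ n ih =>
  intro α _ _ hn π H hH htr h2 hm
  classical
  have h5 := five_le h2 hm
  have hnp : ¬ IsPreprimitive H α := fun hp => primitive_false hH hp (hn ▸ h2) (hn ▸ hm)
  have hblock : ∃ B : Set α, IsBlock H B ∧ ¬ IsTrivialBlock B := by
    by_contra hcon
    push_neg at hcon
    exact hnp { toIsPretransitive := htr, isTrivialBlock_of_isBlock := fun {B} hB => hcon B hB }
  obtain ⟨B, hB, hnt⟩ := hblock
  simp only [IsTrivialBlock, not_or] at hnt
  obtain ⟨hsub, huniv⟩ := hnt
  have hBne : B.Nonempty := Set.nonempty_iff_ne_empty.mpr fun e => hsub (e ▸ Set.subsingleton_empty)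
  set b := B.ncard with hb
  have hb1 : 1 < b := by
    rw [hb, Set.one_lt_ncard_iff_nontrivial]
    exact Set.not_subsingleton_iff.mp hsub
  have hbn : b < n := by
    rw [← hn, ← Nat.card_eq_fintype_card (α := α), ← Set.ncard_univ]
    exact Set.ncard_lt_ncard (Set.ssubset_univ_iff.mpr huniv)
  set m := (MulAction.orbit H B).ncard with hmdef
  have hbm : n = m * b := by
    have := hB.ncard_block_mul_ncard_orbit_eq hBne
    rw [Nat.card_eq_fintype_card (α := α), hn] at this
    rw [← this, mul_comm]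
  have hm2 : 2 ≤ m := by
    by_contra h
    interval_cases m <;> omega
  -- every prime of `π` is at most `b`
  have hpb : ∀ p : ℕ, p.Prime → p ∈ π → p ≤ n → p ≤ b := by
    intro p hp hpπ hpn
    obtain ⟨g, hg, hc, hcard, hord⟩ := exists_cycle_mem hH hp hpπ (hn.symm ▸ hpn)
    exact prime_le_block hB htr hBne hb1 hg hc hp hcard hord
  set P := stabilizer (Perm α) B with hP
  -- index bookkeeping
  set j := H.index with hj
  have hrel : (H ⊓ P).relIndex P * (n - 1).choose (b - 1) = j := by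
    have e1 : (H ⊓ P).relIndex P * P.index = (H ⊓ P).relIndex H * H.index := by
      rw [Subgroup.relIndex_mul_index inf_le_right, Subgroup.relIndex_mul_index inf_le_left]
    have e2 : (H ⊓ P).relIndex H = m := by
      rw [Subgroup.inf_relIndex_left, hmdef, ← index_stabilizer]
      rfl
    rw [e2, hP, index_stabilizer_set, hn, ← hb] at e1
    have e3 : n.choose b = m * (n - 1).choose (b - 1) := by
      have := Nat.add_one_mul_choose_eq (n - 1) (b - 1)
      rw [show n - 1 + 1 = n by omega, show b - 1 + 1 = b by omega] at this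
      apply Nat.eq_of_mul_eq_mul_right (show 0 < b by omega)
      rw [← this]
      generalize (n - 1).choose (b - 1) = K
      rw [hbm]
      ring
    rw [e3, mul_left_comm] at e1
    exact Nat.eq_of_mul_eq_mul_left (by omega) e1
  have hHall : IsPiHall π ((H.subgroupOf P).map (toSub B)) := by
    refine hall_map (⟨fun p hp h => hH.1 p hp ?_, fun p hp hpπ h => hH.2 p hp hpπ ?_⟩) _
      (toSub_surjective B)
    · rw [← Subgroup.inf_subgroupOf_right H P,
        Nat.card_congr (Subgroup.subgroupOfEquivOfLe inf_le_right).toEquiv] at h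
      exact h.trans (Subgroup.card_dvd_of_le inf_le_left)
    · refine h.trans ?_
      show H.relIndex P ∣ H.index
      rw [← hj, ← hrel, Subgroup.inf_relIndex_right]
      exact Dvd.intro _ rfl
  have hcardB : Fintype.card B = b := by
    rw [← Nat.card_eq_fintype_card, Nat.card_coe_set_eq]
  have htrB : IsPretransitive ((H.subgroupOf P).map (toSub B)) B := by
    refine restrict_transitive fun x hx y hy => ?_
    obtain ⟨h, hh⟩ := htr.exists_smul_eq x y
    refine ⟨h, h.2, ?_, hh⟩
    rcases hB.smul_eq_or_disjoint h with e | e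
    · exact e
    · exact absurd (hh ▸ Set.smul_mem_smul_set hx) (Set.disjoint_right.mp e hy)
  have h2b : TwoPi π b := by
    obtain ⟨r, s, hr, hs, hrs, hrπ, hsπ, hrn, hsn⟩ := h2
    exact ⟨r, s, hr, hs, hrs, hrπ, hsπ, hpb r hr hrπ hrn, hpb s hs hsπ hsn⟩
  -- the number of partitions
  have hU : Nat.uniformBell m b ∣ j := by
    set C : Finset (Set α) := (MulAction.orbit H B).toFinset with hC
    have hcov : ∀ x : α, ∃ U ∈ C, x ∈ U := by
      intro x
      obtain ⟨b0, hb0⟩ := hBne
      obtain ⟨h, hh⟩ := htr.exists_smul_eq b0 x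
      exact ⟨h • B, Set.mem_toFinset.mpr ⟨h, rfl⟩, hh ▸ Set.smul_mem_smul_set hb0⟩
    have hinv : ∀ g ∈ H, ∀ U ∈ C, g • U ∈ C := by
      intro g hg U hU
      rw [hC, Set.mem_toFinset] at hU ⊢
      exact MulAction.mem_orbit_of_mem_orbit (⟨g, hg⟩ : H) hU
    have hdvd := card_dvd_of_invariant H C hcov hinv
    have hCm : C.card = m := by rw [hC, hmdef, Set.ncard_eq_toFinset_card']
    have hprod : ∏ U ∈ C, (U.ncard)! = (b !) ^ m := by
      rw [← hCm, ← Finset.prod_const]
      refine Finset.prod_congr rfl fun U hU => ?_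
      rw [hC, Set.mem_toFinset] at hU
      obtain ⟨h, rfl⟩ := hU
      show ((h • B).ncard)! = _
      rw [Set.ncard_smul_set]
    rw [hprod, hCm] at hdvd
    obtain ⟨k, hk⟩ := hdvd
    have hfac := Nat.uniformBell_mul_eq m (show b ≠ 0 by omega)
    rw [mul_assoc, hk, ← hbm] at hfac
    have hcardG := Subgroup.card_mul_index H
    rw [Nat.card_perm, Nat.card_eq_fintype_card (α := α), hn, ← hfac, ← hj,
      mul_left_comm] at hcardG
    exact Dvd.intro _ (Nat.eq_of_mul_eq_mul_left Nat.card_pos hcardG).symm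
  have hchain : ∀ i : ℕ, 2 ≤ i → i ≤ m → (i * b - 1).choose (b - 1) ∣ j := by
    intro i hi him
    exact (bell_dvd b hi him).trans hU
  have hsmall : ∀ i : ℕ, 2 ≤ i → i ≤ m → ∀ p : ℕ, p.Prime → p ∣ (i * b - 1).choose (b - 1) →
      p ∉ π :=
    fun i hi him p hp hd hpπ => hH.2 p hp hpπ (hd.trans (hchain i hi him))
  by_cases hmb : Miss π b
  · obtain ⟨hb8, h23, -⟩ := ih b hbn hcardB hHall htrB h2b hmb
    exact absurd ((h23 3 Nat.prime_three (by omega)).mpr (Or.inr rfl))
      (hsmall 2 le_rfl hm2 3 Nat.prime_three (by rw [hb8]; decide))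
  · simp only [Miss, not_exists, not_and, not_not] at hmb
    have hb3 : 3 ≤ b := by
      obtain ⟨r, s, hr, hs, hrs, -, -, hrb, hsb⟩ := h2b
      have := hr.two_le
      have := hs.two_le
      omega
    have hc := choose_small_prime (a := b) (c := b - 1) (by omega) (by omega) (by omega)
      (fun p hp hd => by
        by_contra hle
        refine hsmall 2 le_rfl hm2 p hp ?_ (hmb p hp (by omega))
        rw [show 2 * b - 1 = b + (b - 1) by omega]
        exact hd)
    have hb4 : b = 4 := by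
      rcases hc with ⟨e, -⟩ | ⟨e, -⟩ <;> omega
    have h23π : 2 ∈ π ∧ 3 ∈ π := ⟨hmb 2 Nat.prime_two (by omega), hmb 3 Nat.prime_three (by omega)⟩
    have hm' : m = 2 := by
      by_contra hne
      refine hsmall 3 (by omega) (by omega) 3 Nat.prime_three ?_ h23π.2
      rw [hb4, show 3 * 4 - 1 = 11 from rfl, show 4 - 1 = 3 from rfl, eleven_choose]
      decide
    have hn8 : n = 8 := by rw [hbm, hm', hb4]
    have h23 : Only23 π n := by
      intro r hr hrn
      constructor
      · intro hrπ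
        have := hpb r hr hrπ hrn
        have := hr.two_le
        have : r ≠ 4 := fun e => by subst e; exact absurd hr (by decide)
        omega
      · rintro (rfl | rfl)
        exacts [h23π.1, h23π.2]
    refine ⟨hn8, h23, B, hb4, ?_⟩
    -- the stabiliser of the pair is a `π`-group above `H`
    have hpair : ∀ h : H, h • B = B ∨ h • B = Bᶜ := by
      intro h
      rcases hB.smul_eq_or_disjoint h with e | e
      · exact Or.inl e
      · refine Or.inr (Set.eq_of_subset_of_ncard_le
          (fun y hy => Set.disjoint_left.mp e hy) ?_)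
        rw [Set.ncard_compl, Set.ncard_smul_set, Nat.card_eq_fintype_card (α := α), hn, hn8, ← hb, hb4]
    refine hall_eq_of_le hH ?_ ?_
    · intro h hh
      rw [mem_stabilizer_iff]
      have e := hpair ⟨h, hh⟩
      have hcompl : h • Bᶜ = (h • B)ᶜ := Set.smul_set_compl ..
      rw [Set.smul_set_insert, Set.smul_set_singleton, hcompl]
      rcases e with e | e <;> (rw [show h • B = _ from e])
      rw [compl_compl, Set.pair_comm]
    · intro p hp hd
      refine (h23 p hp ((hn ▸ prime_le_of_dvd_card hp hd))).mpr ?_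
      have hdv := card_dvd_of_invariant (stabilizer (Perm α) ({B, Bᶜ} : Set (Set α))) {B, Bᶜ}
        (fun x => by
          by_cases hx : x ∈ B
          · exact ⟨B, by simp, hx⟩
          · exact ⟨Bᶜ, by simp, hx⟩)
        (fun g hg U hU => by
          have : g • U ∈ g • ({B, Bᶜ} : Set (Set α)) :=
            Set.smul_mem_smul_set (by simpa using hU)
          rw [mem_stabilizer_iff.mp hg] at this
          simpa using this)
      have hne : B ≠ Bᶜ := fun e => by
        obtain ⟨y, hy⟩ := hBne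
        exact (e ▸ hy : y ∈ Bᶜ) hy
      rw [Finset.prod_pair hne, Finset.card_pair hne, Set.ncard_compl,
        Nat.card_eq_fintype_card (α := α), hn, hn8, ← hb, hb4] at hdv
      have h24 : p ∣ 2 ^ 7 * 3 ^ 2 := (hd.trans hdv).trans (by decide)
      rcases hp.dvd_mul.mp h24 with h | h
      · exact Or.inl ((Nat.prime_dvd_prime_iff_eq hp Nat.prime_two).mp (hp.dvd_of_dvd_pow h))
      · exact Or.inr ((Nat.prime_dvd_prime_iff_eq hp Nat.prime_three).mp (hp.dvd_of_dvd_pow h))

/-- the three kinds of nontrivial Hall subgroups -/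
theorem classify (hH : IsPiHall π H) (h2 : TwoPi π (Fintype.card α))
    (hm : Miss π (Fintype.card α)) :
    ((Fintype.card α).Prime ∧ (∀ r : ℕ, r.Prime → r ≤ Fintype.card α →
        (r ∈ π ↔ r < Fintype.card α)) ∧ ∃ x : α, H = stabilizer (Perm α) x) ∨
    (Fintype.card α = 7 ∧ Only23 π (Fintype.card α) ∧
        ∃ U : Set α, U.ncard = 4 ∧ H = stabilizer (Perm α) U) ∨
    (Fintype.card α = 8 ∧ Only23 π (Fintype.card α) ∧
        ∃ U : Set α, U.ncard = 4 ∧ H = stabilizer (Perm α) ({U, Uᶜ} : Set (Set α))) := by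
  classical
  have h5 := five_le h2 hm
  haveI : Nonempty α := Fintype.card_pos_iff.mp (by omega)
  obtain ⟨x₀, hmax⟩ := Finite.exists_max fun x : α => (MulAction.orbit H x).ncard
  set D := MulAction.orbit H x₀ with hD
  set a := D.ncard with ha
  have hpa : ∀ p : ℕ, p.Prime → p ∈ π → p ≤ Fintype.card α → p ≤ a := fun p hp hpπ hpn => by
    obtain ⟨x, hx⟩ := exists_orbit_ge hH hp hpπ hpn
    exact hx.trans (hmax x)
  by_cases hall : D = Set.univ
  · have htr : IsPretransitive H α := by
      refine ⟨fun x y => ?_⟩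
      obtain ⟨g, hg⟩ : x ∈ D := hall ▸ Set.mem_univ x
      obtain ⟨k, hk⟩ : y ∈ D := hall ▸ Set.mem_univ y
      exact ⟨k * g⁻¹, by rw [mul_smul, ← hg, inv_smul_smul]; exact hk⟩
    exact Or.inr (Or.inr (transitive_case _ rfl hH htr h2 hm))
  obtain ⟨y₀, hy₀⟩ := (Set.ne_univ_iff_exists_notMem D).mp hall
  have hDH : H ≤ stabilizer (Perm α) D := mem_stab_orbit_union (orbit_invariant x₀)
  have hOH : ∀ y, H ≤ stabilizer (Perm α) (MulAction.orbit H y) :=
    fun y => mem_stab_orbit_union (orbit_invariant y)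
  have hdisj : ∀ x y : α, y ∉ MulAction.orbit H x →
      Disjoint (MulAction.orbit H x) (MulAction.orbit H y) := by
    intro x y hy
    rw [Set.disjoint_left]
    intro z hz hz'
    exact hy (MulAction.orbit_eq_iff.mp
      ((MulAction.orbit_eq_iff.mpr hz').symm.trans (MulAction.orbit_eq_iff.mpr hz)))
  have hcpos : ∀ y : α, 1 ≤ (MulAction.orbit H y).ncard := fun y => by
    rw [Nat.one_le_iff_ne_zero, ← Nat.pos_iff_ne_zero, Set.ncard_pos]
    exact ⟨y, MulAction.mem_orbit_self y⟩
  have hch : ∀ y : α, y ∉ D → ∀ p : ℕ, p.Prime → p ∈ π →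
      ¬ p ∣ (a + (MulAction.orbit H y).ncard).choose a :=
    fun y hy => split_choose hH hDH (hOH y) (hdisj x₀ y hy)
  have hcardD : Fintype.card D = a := by
    rw [← Nat.card_eq_fintype_card, Nat.card_coe_set_eq]
  have h2a : TwoPi π a := by
    obtain ⟨r, s, hr, hs, hrs, hrπ, hsπ, hrn, hsn⟩ := h2
    exact ⟨r, s, hr, hs, hrs, hrπ, hsπ, hpa r hr hrπ hrn, hpa s hs hsπ hsn⟩
  have ha2 : 2 ≤ a := by
    obtain ⟨r, s, hr, -, -, -, -, hra, -⟩ := h2a
    exact hr.two_le.trans hra
  by_cases hma : Miss π a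
  · exfalso
    have htrD : IsPretransitive ((H.subgroupOf (stabilizer (Perm α) D)).map (toSub D)) D := by
      refine restrict_transitive fun x hx y hy => ?_
      obtain ⟨g, hg⟩ := hx
      obtain ⟨k, hk⟩ := hy
      refine ⟨(k * g⁻¹ : H), SetLike.coe_mem _, hDH (SetLike.coe_mem _), ?_⟩
      show (k * g⁻¹) • x = y
      rw [mul_smul, ← hg, inv_smul_smul]; exact hk
    obtain ⟨ha8, h23, -⟩ := transitive_case a hcardD (restrict_hall hH hDH).1 htrD h2a hma
    set c := (MulAction.orbit H y₀).ncard with hc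
    have hc8 : c ≤ 8 := ha8 ▸ hmax y₀
    have h1 := hcpos y₀
    have hcπ : ∀ r : ℕ, r.Prime → r ∣ c → r = 2 ∨ r = 3 := fun r hr hrc =>
      (h23 r hr ((Nat.le_of_dvd h1 hrc).trans (hc.symm ▸ hmax y₀))).mp
        (hH.1 r hr (hrc.trans (orbit_ncard_dvd y₀)))
    have h3 := hch y₀ hy₀ 3 Nat.prime_three ((h23 3 Nat.prime_three (by omega)).mpr (Or.inr rfl))
    rw [ha8] at h3
    rw [← hc] at h3
    have hc5 : c ≠ 5 := fun e => by
      rcases hcπ 5 (by norm_num) (e ▸ dvd_rfl) with h | h <;> omega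
    have hc7 : c ≠ 7 := fun e => by
      rcases hcπ 7 (by norm_num) (e ▸ dvd_rfl) with h | h <;> omega
    interval_cases c <;> first | omega | exact h3 (by decide)
  simp only [Miss, not_exists, not_and, not_not] at hma
  have hlem : ∀ c : ℕ, 1 ≤ c → c ≤ a → (∀ p : ℕ, p.Prime → p ∈ π → ¬ p ∣ (a + c).choose a) →
      (c = 1 ∧ (a + 1).Prime) ∨ (a = 4 ∧ c = 3) := by
    intro c hc1 hca hsp
    refine choose_small_prime ha2 hc1 hca fun p hp hd => ?_
    by_contra hle
    exact hsp p hp (hma p hp (by omega)) (by rwa [Nat.choose_symm_add])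
  have hkind : ∀ y : α, y ∉ D → ((MulAction.orbit H y).ncard = 1 ∧ (a + 1).Prime) ∨
      (a = 4 ∧ (MulAction.orbit H y).ncard = 3) :=
    fun y hy => hlem _ (hcpos y) (hmax y) (hch y hy)
  set Γ := MulAction.orbit H y₀ with hΓ
  have hcompl : Γ = Dᶜ := by
    refine Set.Subset.antisymm (fun z hz => Set.disjoint_right.mp (hdisj x₀ y₀ hy₀) hz) ?_
    intro z hz
    by_contra hzΓ
    have hd12 := hdisj y₀ z hzΓ
    have hd : Disjoint D (Γ ∪ MulAction.orbit H z) :=
      Set.disjoint_union_right.mpr ⟨hdisj x₀ y₀ hy₀, hdisj x₀ z hz⟩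
    have hW : H ≤ stabilizer (Perm α) (Γ ∪ MulAction.orbit H z) := fun h hh => by
      rw [mem_stabilizer_iff, Set.smul_set_union, mem_stabilizer_iff.mp (hOH y₀ hh),
        mem_stabilizer_iff.mp (hOH z hh)]
    have hsp := split_choose hH hDH hW hd
    rw [Set.ncard_union_eq hd12, ← ha] at hsp
    rcases hkind y₀ hy₀ with ⟨e1, -⟩ | ⟨e1, e2⟩ <;>
      rcases hkind z hz with ⟨e3, -⟩ | ⟨e3, e4⟩
    · rw [e1, e3] at hsp
      rcases hlem 2 (by norm_num) ha2 hsp with ⟨e, -⟩ | ⟨-, e⟩ <;> omega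
    · rw [e1, e4, e3] at hsp
      exact hsp 2 Nat.prime_two (hma 2 Nat.prime_two (by omega)) (by decide)
    · rw [e2, e3, e1] at hsp
      exact hsp 2 Nat.prime_two (hma 2 Nat.prime_two (by omega)) (by decide)
    · rw [e2, e4, e1] at hsp
      exact hsp 2 Nat.prime_two (hma 2 Nat.prime_two (by omega)) (by decide)
  have hn : Fintype.card α = a + Γ.ncard := by
    rw [hcompl, Set.ncard_compl, Nat.card_eq_fintype_card (α := α)]
    have : a ≤ Fintype.card α := by
      rw [← Nat.card_eq_fintype_card (α := α), ← Set.ncard_univ]; exact Set.ncard_le_ncard (Set.subset_univ D)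
    omega
  rcases hkind y₀ hy₀ with ⟨e1, hp1⟩ | ⟨e1, e2⟩
  · rw [← hΓ] at e1
    rw [e1] at hn
    refine Or.inl ⟨hn ▸ hp1, fun r hr hrn => ⟨fun hrπ => ?_, fun hlt => hma r hr (by omega)⟩,
      y₀, hall_eq_of_le hH ?_ ?_⟩
    · have := hpa r hr hrπ hrn; omega
    · intro h hh
      rw [mem_stabilizer_iff]
      have hmem : h y₀ ∈ Γ := orbit_invariant y₀ h hh y₀ (MulAction.mem_orbit_self y₀)
      obtain ⟨z, hz⟩ := Set.ncard_eq_one.mp e1
      have hy : y₀ ∈ Γ := MulAction.mem_orbit_self y₀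
      rw [hz, Set.mem_singleton_iff] at hmem hy
      rw [Perm.smul_def, hmem, hy]
    · intro p hp hd
      have hs : Nat.card (stabilizer (Perm α) y₀) = a ! := by
        have h := Subgroup.card_mul_index (stabilizer (Perm α) y₀)
        rw [index_stabilizer_of_transitive, Nat.card_perm, Nat.card_eq_fintype_card (α := α), hn,
          Nat.factorial_succ, mul_comm] at h
        exact Nat.eq_of_mul_eq_mul_left (by omega) h
      rw [hs] at hd
      exact hma p hp ((hp.dvd_factorial).mp hd)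
  · rw [← hΓ] at e2
    rw [e2, e1] at hn
    have h23 : Only23 π (Fintype.card α) := by
      intro r hr hrn
      constructor
      · intro hrπ
        have := hpa r hr hrπ hrn
        have := hr.two_le
        have : r ≠ 4 := fun e => by subst e; exact absurd hr (by decide)
        omega
      · rintro (rfl | rfl) <;> exact hma _ hr (by omega)
    refine Or.inr (Or.inl ⟨hn, h23, D, e1, hall_eq_of_le hH hDH ?_⟩)
    intro p hp hd
    refine (h23 p hp (prime_le_of_dvd_card hp hd)).mpr ?_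
    have h := Subgroup.card_mul_index (stabilizer (Perm α) D)
    rw [index_stabilizer_set, Nat.card_perm, Nat.card_eq_fintype_card (α := α), hn, ← ha, e1] at h
    have hs : Nat.card (stabilizer (Perm α) D) = 2 ^ 4 * 3 ^ 2 := by
      norm_num [Nat.choose, Nat.factorial] at h ⊢
      omega
    rw [hs] at hd
    rcases hp.dvd_mul.mp hd with h | h
    · exact Or.inl ((Nat.prime_dvd_prime_iff_eq hp Nat.prime_two).mp (hp.dvd_of_dvd_pow h))
    · exact Or.inr ((Nat.prime_dvd_prime_iff_eq hp Nat.prime_three).mp (hp.dvd_of_dvd_pow h))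

end CfsgLib.HallSym
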