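import Cfsg.Agent.HallSym.Classify

/-!
# The standard Hall subgroups: existence, conjugacy, odd elements
-/

set_option autoImplicit false

open scoped Pointwise Nat
open Cfsg Equiv Equiv.Perm MulAction

namespace CfsgLib.HallSym

universe u

variable {α : Type u} [Fintype α] [DecidableEq α] {π : Set ℕ}

omit [DecidableEq α] in
theorem exists_smul_set {U V : Set α} (h : U.ncard = V.ncard) : ∃ g : Perm α, g • U = V := by
  classical
  obtain ⟨e⟩ : Nonempty ({x // x ∈ U} ≃ {x // x ∈ V}) := by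
    refine Finite.card_eq.mp ?_
    show Nat.card U = Nat.card V
    rw [Nat.card_coe_set_eq, Nat.card_coe_set_eq, h]
  refine ⟨Equiv.extendSubtype e, Set.eq_of_subset_of_ncard_le ?_ ?_⟩
  · rintro _ ⟨x, hx, rfl⟩
    exact e.extendSubtype_mem x hx
  · rw [Set.ncard_smul_set, h]

omit [Fintype α] in
theorem swap_mem_stab {U : Set α} {a b : α} (ha : a ∈ U) (hb : b ∈ U) :
    swap a b • U = U := by
  have h1 : ∀ x ∈ U, swap a b x ∈ U := by
    intro x hx
    rw [swap_apply_def]
    split_ifs <;> assumption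
  apply Set.Subset.antisymm
  · rintro _ ⟨x, hx, rfl⟩
    exact h1 x hx
  · intro x hx
    exact ⟨swap a b x, h1 x hx, swap_apply_self a b x⟩

omit [Fintype α] [DecidableEq α] in
theorem smul_pair (g : Perm α) (U : Set α) :
    g • ({U, Uᶜ} : Set (Set α)) = {g • U, (g • U)ᶜ} := by
  rw [Set.smul_set_insert, Set.smul_set_singleton, Set.smul_set_compl]

/-- the description obtained by the classification -/
def IsStd (π : Set ℕ) (H : Subgroup (Perm α)) : Prop :=
    ((Fintype.card α).Prime ∧ (∀ r : ℕ, r.Prime → r ≤ Fintype.card α →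
        (r ∈ π ↔ r < Fintype.card α)) ∧ ∃ x : α, H = stabilizer (Perm α) x) ∨
    (Fintype.card α = 7 ∧ Only23 π (Fintype.card α) ∧
        ∃ U : Set α, U.ncard = 4 ∧ H = stabilizer (Perm α) U) ∨
    (Fintype.card α = 8 ∧ Only23 π (Fintype.card α) ∧
        ∃ U : Set α, U.ncard = 4 ∧ H = stabilizer (Perm α) ({U, Uᶜ} : Set (Set α)))

theorem only23_not_all {n : ℕ} (hn : n.Prime) (h5 : 6 ≤ n) (h : Only23 π n)
    (h' : ∀ r : ℕ, r.Prime → r ≤ n → (r ∈ π ↔ r < n)) : False := by
  have := (h 5 (by norm_num) (by omega)).mp ((h' 5 (by norm_num) (by omega)).mpr (by omega))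
  omega

/-- two standard subgroups are conjugate -/
theorem isStd_conj {H K : Subgroup (Perm α)} (hH : IsStd π H) (hK : IsStd π K) :
    ∃ g : Perm α, K = H.map (MulAut.conj g).toMonoidHom := by
  rcases hH with ⟨hp, hc, x, rfl⟩ | ⟨hn, h23, U, hU, rfl⟩ | ⟨hn, h23, U, hU, rfl⟩ <;>
    rcases hK with ⟨hp', hc', y, rfl⟩ | ⟨hn', h23', V, hV, rfl⟩ | ⟨hn', h23', V, hV, rfl⟩
  · refine ⟨swap x y, ?_⟩
    rw [← stabilizer_smul_eq_stabilizer_map_conj, Perm.smul_def, swap_apply_left]
  · exact (only23_not_all hp (by omega) h23' hc).elim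
  · exact (only23_not_all hp (by omega) h23' hc).elim
  · exact (only23_not_all hp' (by omega) h23 hc').elim
  · obtain ⟨g, hg⟩ := exists_smul_set (hU.trans hV.symm)
    exact ⟨g, by rw [← stabilizer_smul_eq_stabilizer_map_conj, hg]⟩
  · omega
  · exact (only23_not_all hp' (by omega) h23 hc').elim
  · omega
  · obtain ⟨g, hg⟩ := exists_smul_set (hU.trans hV.symm)
    exact ⟨g, by rw [← stabilizer_smul_eq_stabilizer_map_conj, smul_pair, hg]⟩

/-- a standard subgroup has an odd element -/
theorem isStd_odd {H : Subgroup (Perm α)} (hH : IsStd π H) (h5 : 5 ≤ Fintype.card α) :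
    ∃ y ∈ H, sign y = -1 := by
  rcases hH with ⟨-, -, x, rfl⟩ | ⟨-, -, U, hU, rfl⟩ | ⟨-, -, U, hU, rfl⟩
  · obtain ⟨a, b, ha, hb, hab⟩ : ∃ a b : α, a ≠ x ∧ b ≠ x ∧ a ≠ b := by
      obtain ⟨a, ha, b, hb, hab⟩ := Finset.one_lt_card.mp
        (show 1 < (Finset.univ.erase x).card by
          rw [Finset.card_erase_of_mem (Finset.mem_univ x), Finset.card_univ]; omega)
      exact ⟨a, b, Finset.ne_of_mem_erase ha, Finset.ne_of_mem_erase hb, hab⟩
    exact ⟨swap a b, swap_apply_of_ne_of_ne ha.symm hb.symm, sign_swap hab⟩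
  · obtain ⟨a, b, ha, hb, hab⟩ := (Set.one_lt_ncard_iff (Set.toFinite U)).mp (by omega)
    exact ⟨swap a b, swap_mem_stab ha hb, sign_swap hab⟩
  · obtain ⟨a, b, ha, hb, hab⟩ := (Set.one_lt_ncard_iff (Set.toFinite U)).mp (by omega)
    refine ⟨swap a b, ?_, sign_swap hab⟩
    rw [mem_stabilizer_iff, smul_pair, swap_mem_stab ha hb]

theorem isStd_of_hall {H : Subgroup (Perm α)} (hH : IsPiHall π H)
    (h2 : TwoPi π (Fintype.card α)) (hm : Miss π (Fintype.card α)) : IsStd π H :=
  classify hH h2 hm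

/-- existence for a prime degree -/
theorem ePi_prime (hn : (Fintype.card α).Prime)
    (hc : ∀ r : ℕ, r.Prime → r ≤ Fintype.card α → (r ∈ π ↔ r < Fintype.card α)) :
    IsEPiGroup π (Perm α) := by
  classical
  set n := Fintype.card α with hndef
  obtain ⟨x⟩ : Nonempty α := Fintype.card_pos_iff.mp hn.pos
  have hidx : (stabilizer (Perm α) x).index = n := by
    rw [index_stabilizer_of_transitive, Nat.card_eq_fintype_card]
  have h := Subgroup.card_mul_index (stabilizer (Perm α) x)
  rw [hidx, Nat.card_perm, Nat.card_eq_fintype_card (α := α), ← hndef,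
    ← Nat.mul_factorial_pred hn.ne_zero, mul_comm] at h
  have hs := Nat.eq_of_mul_eq_mul_left hn.pos h
  refine ⟨stabilizer (Perm α) x, fun p hp hd => ?_, fun p hp hpπ hd => ?_⟩
  · rw [hs] at hd
    have hle := (hp.dvd_factorial).mp hd
    have := hn.pos
    exact (hc p hp (by omega)).mpr (by omega)
  · rw [hidx] at hd
    obtain rfl := (Nat.prime_dvd_prime_iff_eq hp hn).mp hd
    exact absurd ((hc _ hp le_rfl).mp hpπ) (lt_irrefl _)

theorem only23_primes {n m : ℕ} (h23 : Only23 π n) (hn : 3 ≤ n) {p : ℕ} (hp : p.Prime)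
    (hd : p ∣ m) (hm : m ∣ 2 ^ 7 * 3 ^ 4) : p ∈ π := by
  rcases hp.dvd_mul.mp (hd.trans hm) with h | h
  · rw [(Nat.prime_dvd_prime_iff_eq hp Nat.prime_two).mp (hp.dvd_of_dvd_pow h)]
    exact (h23 2 Nat.prime_two (by omega)).mpr (Or.inl rfl)
  · rw [(Nat.prime_dvd_prime_iff_eq hp Nat.prime_three).mp (hp.dvd_of_dvd_pow h)]
    exact (h23 3 Nat.prime_three hn).mpr (Or.inr rfl)

theorem only23_index {n p : ℕ} (h23 : Only23 π n) (hn : 7 ≤ n) (hp : p.Prime) (hpπ : p ∈ π)
    (hd : p ∣ 35) : False := by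
  rcases hp.dvd_mul.mp (show p ∣ 5 * 7 from hd) with h | h
  · obtain rfl := (Nat.prime_dvd_prime_iff_eq hp (by norm_num)).mp h
    have := (h23 5 hp (by omega)).mp hpπ; omega
  · obtain rfl := (Nat.prime_dvd_prime_iff_eq hp (by norm_num)).mp h
    have := (h23 7 hp (by omega)).mp hpπ; omega

/-- existence in degree seven -/
theorem ePi_seven (hn : Fintype.card α = 7) (h23 : Only23 π (Fintype.card α)) :
    IsEPiGroup π (Perm α) := by
  classical
  obtain ⟨U, -, hU⟩ := Set.exists_subset_card_eq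
    (show 4 ≤ (Set.univ : Set α).ncard by rw [Set.ncard_univ, Nat.card_eq_fintype_card]; omega)
  have hidx : (stabilizer (Perm α) U).index = 35 := by
    rw [index_stabilizer_set, hn, hU]; decide
  have h := Subgroup.card_mul_index (stabilizer (Perm α) U)
  rw [hidx, Nat.card_perm, Nat.card_eq_fintype_card (α := α), hn,
    show (7 : ℕ)! = 144 * 35 from by decide] at h
  have hs := Nat.eq_of_mul_eq_mul_right (by norm_num) h
  refine ⟨stabilizer (Perm α) U, fun p hp hd => ?_, fun p hp hpπ hd => ?_⟩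
  · rw [hs] at hd
    exact only23_primes h23 (by omega) hp hd (by norm_num)
  · rw [hidx] at hd
    exact only23_index h23 (by omega) hp hpπ hd

/-- existence in degree eight -/
theorem ePi_eight (hn : Fintype.card α = 8) (h23 : Only23 π (Fintype.card α)) :
    IsEPiGroup π (Perm α) := by
  classical
  obtain ⟨U, -, hU⟩ := Set.exists_subset_card_eq
    (show 4 ≤ (Set.univ : Set α).ncard by rw [Set.ncard_univ, Nat.card_eq_fintype_card]; omega)
  have hUc : Uᶜ.ncard = 4 := by rw [Set.ncard_compl, Nat.card_eq_fintype_card, hn, hU]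
  set S := stabilizer (Perm α) U with hS
  set P := stabilizer (Perm α) ({U, Uᶜ} : Set (Set α)) with hP
  have hSP : S ≤ P := fun g hg => by
    rw [hP, mem_stabilizer_iff, smul_pair, mem_stabilizer_iff.mp hg]
  have hSc : Nat.card S = 576 := by
    have h := Subgroup.card_mul_index S
    rw [hS, index_stabilizer_set, hn, hU, Nat.card_perm, Nat.card_eq_fintype_card (α := α), hn,
      show (8 : ℕ).choose 4 = 70 from by decide, show (8 : ℕ)! = 576 * 70 from by decide] at h
    exact Nat.eq_of_mul_eq_mul_right (by norm_num) h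
  have hne : U ≠ Uᶜ := fun e => by
    obtain ⟨y, hy⟩ := Set.nonempty_of_ncard_ne_zero (s := U) (by omega)
    exact (e ▸ hy : y ∈ Uᶜ) hy
  have hPd : Nat.card P ∣ 1152 := by
    have hd := card_dvd_of_invariant P {U, Uᶜ}
      (fun x => by
        by_cases hx : x ∈ U
        · exact ⟨U, by simp, hx⟩
        · exact ⟨Uᶜ, by simp, hx⟩)
      (fun g hg V hV => by
        have h' : g • V ∈ g • ({U, Uᶜ} : Set (Set α)) :=
          Set.smul_mem_smul_set (by simpa using hV)
        rw [mem_stabilizer_iff.mp hg] at h'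
        simpa using h')
    rw [Finset.prod_pair hne, Finset.card_pair hne, hU, hUc] at hd
    exact hd
  obtain ⟨g, hg⟩ := exists_smul_set (hU.trans hUc.symm)
  have hgP : g ∈ P := by
    rw [hP, mem_stabilizer_iff, smul_pair, hg, compl_compl, Set.pair_comm]
  have hgS : g ∉ S := fun h => hne ((mem_stabilizer_iff.mp h).symm.trans hg)
  have hlt : Nat.card S ≠ Nat.card P := fun e =>
    hgS (Subgroup.eq_of_le_of_card_ge hSP e.ge ▸ hgP)
  obtain ⟨k, hk⟩ := Subgroup.card_dvd_of_le hSP
  rw [hSc] at hk hlt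
  have hk2 : k = 2 := by
    have h1 : k ∣ 2 := by
      rw [hk] at hPd
      exact (mul_dvd_mul_iff_left (by norm_num : (576 : ℕ) ≠ 0)).mp hPd
    rcases (Nat.dvd_prime Nat.prime_two).mp h1 with rfl | rfl
    · omega
    · rfl
  subst hk2
  have hidx : P.index = 35 := by
    have h := Subgroup.card_mul_index P
    rw [hk, Nat.card_perm, Nat.card_eq_fintype_card (α := α), hn,
      show (8 : ℕ)! = 576 * 2 * 35 from by decide] at h
    exact Nat.eq_of_mul_eq_mul_left (by norm_num) h
  refine ⟨P, fun p hp hd => ?_, fun p hp hpπ hd => ?_⟩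
  · rw [hk] at hd
    exact only23_primes h23 (by omega) hp hd (by norm_num)
  · rw [hidx] at hd
    exact only23_index h23 (by omega) hp hpπ hd

/-- a prime dividing the order of the symmetric group -/
theorem prime_dvd_perm {p : ℕ} (hp : p.Prime) :
    p ∣ Nat.card (Perm α) ↔ p ≤ Fintype.card α := by
  rw [Nat.card_perm, Nat.card_eq_fintype_card (α := α)]
  exact hp.dvd_factorial

theorem le_of_dvd_alt {p : ℕ} (hp : p.Prime) (h : p ∣ Nat.card (alternatingGroup α)) :
    p ≤ Fintype.card α :=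
  (prime_dvd_perm hp).mp (h.trans (Subgroup.card_subgroup_dvd_card _))

theorem dvd_alt {p : ℕ} (hp : p.Prime) (hpn : p ≤ Fintype.card α) (h4 : 4 ≤ Fintype.card α) :
    p ∣ Nat.card (alternatingGroup α) := by
  haveI : Nontrivial α := Fintype.one_lt_card_iff_nontrivial.mp (by omega)
  have hA2 : 2 * Nat.card (alternatingGroup α) = (Fintype.card α)! := by
    rw [Nat.card_eq_fintype_card, two_mul_card_alternatingGroup, Fintype.card_perm]
  by_cases h2 : p = 2
  · subst h2
    have h : 2 * 2 ∣ (Fintype.card α)! :=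
      Dvd.dvd.trans (by decide : 2 * 2 ∣ (4 : ℕ)!) (Nat.factorial_dvd_factorial h4)
    rw [← hA2] at h
    exact (mul_dvd_mul_iff_left (two_ne_zero)).mp h
  · have h := (hp.dvd_factorial).mpr hpn
    rw [← hA2] at h
    exact (hp.dvd_mul.mp h).resolve_left
      (fun e => h2 ((Nat.prime_dvd_prime_iff_eq hp Nat.prime_two).mp e))

end CfsgLib.HallSym
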